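import Cfsg.Agent.Chevalley.RankOne

/-!
Generation of a Chevalley group by the monomial subgroup and fundamental root subgroups.
-/

set_option autoImplicit false

namespace CfsgLib.Chevalley

open Cfsg.Lie

/-- Greedy climb through fundamental reflections, ending in the highest root of the same orbit. -/
def climb (D : ChevalleyDatum) : ℕ → ℕ → ℕ
  | 0, r => r
  | n + 1, r => match (List.range D.rank).find? (fun i => decide (r < D.reflectRoot i r)) with
    | none => r
    | some i => climb D n (D.reflectRoot i r)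

variable {D : ChevalleyDatum}

/-- All root elements of the root `r` lie in `M`. -/
def Sys.RootIn (S : Sys D) (F : Type*) [Field F] (M : Subgroup (GL D.Idx F)) (r : ℕ) : Prop :=
  ∀ t : F, S.xG F r t ∈ M

namespace Sys

variable (S : Sys D)
include S

variable (F : Type*) [Field F] {M : Subgroup (GL D.Idx F)}

theorem rootIn_reflect_iff (hN : D.monomialSubgroup F ≤ M) {i r : ℕ} (hi : i < D.rank)
    (hr : r < D.nroots) : S.RootIn F M (D.reflectRoot i r) ↔ S.RootIn F M r := by
  have hn : S.nG F (D.simple i) 1 ∈ M := hN (S.nG_mem_monomial F hi)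
  constructor
  · intro h t
    have e : S.xG F r t = (S.nG F (D.simple i) 1)⁻¹ *
        (S.xG F (D.reflectRoot i r) ((S.eta i r : F) * t) * S.nG F (D.simple i) 1) := by
      rw [← S.nG_conj_xG F hi hr, inv_mul_cancel_left]
    rw [e]
    exact mul_mem (inv_mem hn) (mul_mem (h _) hn)
  · intro h t
    have e := S.nG_conj_xG F hi hr ((S.eta i r : F) * t)
    rw [← mul_assoc, S.eta_cast F hi hr, one_mul] at e
    rw [eq_mul_inv_of_mul_eq e.symm]
    exact mul_mem (mul_mem hn (h _)) (inv_mem hn)

theorem rootIn_climb_iff (hN : D.monomialSubgroup F ≤ M) (n : ℕ) :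
    ∀ r, r < D.nroots → (S.RootIn F M (climb D n r) ↔ S.RootIn F M r) := by
  induction n with
  | zero => exact fun r _ => Iff.rfl
  | succ n ih =>
    intro r hr
    rw [climb]
    generalize hf : (List.range D.rank).find? (fun i => decide (r < D.reflectRoot i r)) = o
    rcases o with _ | i
    · rfl
    · have hi : i < D.rank := List.mem_range.mp (List.mem_of_find?_eq_some hf)
      exact (ih _ (S.w_lt i hi r hr)).trans (S.rootIn_reflect_iff F hN hi hr)

theorem rootIn_of_climb_eq (hN : D.monomialSubgroup F ≤ M) {p r : ℕ} (hp : p < D.nroots)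
    (hr : r < D.nroots) (h : climb D D.nroots p = climb D D.nroots r) (hM : S.RootIn F M p) :
    S.RootIn F M r :=
  (S.rootIn_climb_iff F hN _ r hr).mp (h ▸ (S.rootIn_climb_iff F hN _ p hp).mpr hM)

theorem rootIn_rootSubgroup {r : ℕ} (h : D.rootSubgroup F r ≤ M) : S.RootIn F M r :=
  fun t => h ((S.mem_rootSubgroup F).mpr ⟨t, rfl⟩)

theorem group_le_of_tops (hN : D.monomialSubgroup F ≤ M) (h : ∀ r ∈ S.tops, S.RootIn F M r) :
    D.group F ≤ M := by
  have hall : ∀ r < D.nroots, S.RootIn F M r :=
    S.top_induction (P := fun r => S.RootIn F M r) h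
      fun i hi r hr ih => (S.rootIn_reflect_iff F hN hi hr).mp ih
  rw [S.group_eq F, Subgroup.closure_le]
  rintro _ ⟨r, hr, t, rfl⟩
  exact hall r hr t

theorem rootIn_of_comm {a b k : ℕ} {c : ℤ} (ha : a < D.nroots) (hb : b < D.nroots)
    (h1 : b ≠ a) (h2 : b ≠ D.neg a) (hc : D.commTerms a b = [(k, c, 1, 1)]) (hc0 : (c : F) ≠ 0)
    (hA : S.RootIn F M a) (hB : S.RootIn F M b) : S.RootIn F M k := by
  intro t
  have e := S.xG_comm F ha hb h1 h2 (-1) ((c : F)⁻¹ * t)
  have hW : S.wG F (D.commWord F a b (-1) ((c : F)⁻¹ * t)) = S.xG F k t := by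
    simp only [ChevalleyDatum.commWord, hc, List.map_cons, List.map_nil, wG, List.prod_cons,
      List.prod_nil, mul_one, neg_neg, pow_one]
    rw [← mul_assoc, mul_inv_cancel₀ hc0, one_mul]
  rw [hW] at e
  rw [eq_inv_mul_of_mul_eq e.symm]
  exact mul_mem (inv_mem (hB _)) (mul_mem (mul_mem (inv_mem (hA _)) (hB _)) (hA _))

end Sys

end CfsgLib.Chevalley
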