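import Cfsg.Agent.Chevalley.TwoGenStep

/-!
Steinberg's two generators of a Chevalley group: `h x_α(1)` and `x_β(1) n_w`.
-/

set_option autoImplicit false

namespace CfsgLib.Chevalley

open Cfsg.Lie

variable {D : ChevalleyDatum}

/-- The numerical conditions on a Steinberg pair of generators. -/
def pairCheck (D : ChevalleyDatum) (L : List ℕ) (m al be be0 j : ℕ) (steps : List GenStep) : Bool :=
  let w := Sys.wAct D L
  let o := w^[j] al
  decide (al < D.nroots) && decide (be < D.nroots) && decide (be0 < D.nroots) &&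
    decide (w be0 = be) && decide (D.cartan m al = 0) &&
    decide (D.cartan m be = 1 ∨ D.cartan m be = -1) &&
    decide (D.cartan m be0 = 1 ∨ D.cartan m be0 = -1) &&
    decide (D.cartan m o = 1 ∨ D.cartan m o = -1 ∨ D.cartan m o = 2 ∨ D.cartan m o = -2) &&
    genCheck D false w be [o, be] steps

/-- The numerical condition on two generators over the field with two elements. -/
def pairCheckTwo (D : ChevalleyDatum) (L : List ℕ) (al c : ℕ) (steps : List GenStep) : Bool :=
  decide (al < D.nroots) && decide (c < D.nroots) && genCheck D true (Sys.wAct D L) c [al] steps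

/-- A subring of a finite field containing a generator of the multiplicative group to the power
`±1` or `±2` is everything. -/
theorem subring_eq_top_of_gen {F : Type*} [Field F] [Finite F] {g : Fˣ}
    (hg : ∀ x : Fˣ, x ∈ Subgroup.zpowers g) {e : ℤ} (he : e = 1 ∨ e = -1 ∨ e = 2 ∨ e = -2)
    (R : Subring F) (hR : ((g ^ e : Fˣ) : F) ∈ R) : R = ⊤ := by
  classical
  have := Fintype.ofFinite F
  have hz : ∀ (u : Fˣ), (u : F) ∈ R → ∀ k : ℤ, ((u ^ k : Fˣ) : F) ∈ R := by
    intro u hu k
    obtain ⟨n, hn⟩ : ∃ n : ℕ, u ^ n = u ^ k :=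
      (Submonoid.mem_powers_iff _ _).mp
        (mem_powers_iff_mem_zpowers.mpr (Subgroup.zpow_mem_zpowers u k))
    rw [← hn, Units.val_pow_eq_pow_val]
    exact pow_mem hu n
  have hsq : ∀ x : F, x ^ 2 ∈ R := by
    intro x
    by_cases hx : x = 0
    · rw [hx, zero_pow two_ne_zero]; exact zero_mem R
    obtain ⟨k, hk⟩ := hg (Units.mk0 x hx)
    have h2 : ((g ^ (2 * k) : Fˣ) : F) ∈ R := by
      rcases he with rfl | rfl | rfl | rfl
      · simpa [← zpow_mul] using hz _ hR (2 * k)
      · simpa [← zpow_mul] using hz _ hR (-(2 * k))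
      · have := hz _ hR k
        rwa [← zpow_mul] at this
      · have := hz _ hR (-k)
        rwa [← zpow_mul, neg_mul_neg] at this
    have e1 : (g ^ (2 * k) : Fˣ) = Units.mk0 x hx ^ 2 := by
      rw [← hk, mul_comm, zpow_mul]; norm_cast
    rw [e1, Units.val_pow_eq_pow_val, Units.val_mk0] at h2
    exact h2
  refine (Subring.eq_top_iff' R).mpr fun x => ?_
  by_cases h2 : (2 : F) = 0
  · have : CharP F 2 := by
      obtain ⟨p, hp⟩ := CharP.exists F
      have hd : p ∣ 2 := (CharP.cast_eq_zero_iff F p 2).mp (by exact_mod_cast h2)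
      rcases (Nat.dvd_prime Nat.prime_two).mp hd with rfl | rfl
      · exact absurd rfl (CharP.char_ne_one F 1)
      · exact hp
    obtain ⟨y, hy⟩ := FiniteField.isSquare_of_char_two (ringChar.eq F 2 ▸ rfl) x
    rw [hy, ← pow_two]
    exact hsq y
  · have h2R : (2 : F) ∈ R := by simpa [one_add_one_eq_two] using add_mem (one_mem R) (one_mem R)
    have hinv : (2 : F)⁻¹ ∈ R := by
      have := hz (Units.mk0 2 h2) h2R (-1)
      simpa using this
    have e1 : x = (2 : F)⁻¹ * ((x + 1) ^ 2 - x ^ 2 - 1) := by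
      field_simp
      ring
    rw [e1]
    exact mul_mem hinv (sub_mem (sub_mem (hsq _) (hsq _)) (one_mem R))

namespace Sys

variable (S : Sys D)
include S

variable (F : Type*) [Field F]

theorem xG_pow (r : ℕ) (t : F) (n : ℕ) : S.xG F r t ^ n = S.xG F r (n * t) := by
  induction n with
  | zero => simp [S.xG_zero]
  | succ n ih => rw [pow_succ, ih, S.xG_add]; congr 1; push_cast; ring

omit S in
theorem torusVal_mulSingle {m : ℕ} (hm : m < D.rank) (a : Fˣ) (s : ℕ) :
    torusVal D (Pi.mulSingle m a) s = a ^ D.cartan m s := by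
  rw [torusVal, Finset.prod_eq_single_of_mem m (Finset.mem_range.mpr hm)]
  · rw [Pi.mulSingle_eq_same]
  · intro b _ hb
    rw [Pi.mulSingle_eq_of_ne hb, one_zpow]

/-- A root subgroup is obtained from one element and a torus element with a generating character. -/
theorem rootIn_of_scale [Finite F] {g : Fˣ} (hg : ∀ x : Fˣ, x ∈ Subgroup.zpowers g) {m r : ℕ}
    (hm : m < D.rank) (hr : r < D.nroots)
    (he : D.cartan m r = 1 ∨ D.cartan m r = -1 ∨ D.cartan m r = 2 ∨ D.cartan m r = -2)
    {M : Subgroup (GL D.Idx F)} (hh : tor D F (Pi.mulSingle m g) ∈ M) {t : F} (ht : t ≠ 0)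
    (hx : S.xG F r t ∈ M) : S.RootIn F M r := by
  set ε : F := ((g ^ D.cartan m r : Fˣ) : F)
  set h := tor D F (Pi.mulSingle m g)
  have hconj : ∀ u : F, h * S.xG F r u * h⁻¹ = S.xG F r (ε * u) := fun u => by
    rw [S.tor_conj F _ hr, torusVal_mulSingle F hm]
  let A : AddSubgroup F :=
    { carrier := {u | S.xG F r (u * t) ∈ M}
      zero_mem' := by
        show S.xG F r (0 * t) ∈ M
        rw [zero_mul, S.xG_zero]; exact one_mem M
      add_mem' := fun {a b} ha hb => by
        show S.xG F r ((a + b) * t) ∈ M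
        rw [add_mul, ← S.xG_add]; exact mul_mem ha hb
      neg_mem' := fun {a} ha => by
        show S.xG F r (-a * t) ∈ M
        rw [neg_mul, ← S.xG_inv]; exact inv_mem ha }
  have hpow : ∀ n : ℕ, ε ^ n ∈ A := by
    intro n
    induction n with
    | zero => show S.xG F r (ε ^ 0 * t) ∈ M; rw [pow_zero, one_mul]; exact hx
    | succ n ih =>
      show S.xG F r (ε ^ (n + 1) * t) ∈ M
      have := mul_mem (mul_mem hh ih) (inv_mem hh)
      rw [hconj] at this
      rwa [pow_succ', mul_assoc]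
  have htop : ∀ u : F, u ∈ A := by
    intro u
    have hu : u ∈ Subring.closure ({ε} : Set F) := by
      rw [subring_eq_top_of_gen hg he _ (Subring.subset_closure (Set.mem_singleton ε))]; trivial
    rw [Subring.mem_closure_iff] at hu
    refine (AddSubgroup.closure_le A).mpr ?_ hu
    intro y hy
    obtain ⟨n, rfl⟩ := Submonoid.mem_closure_singleton.mp hy
    exact hpow n
  intro u
  have h2 : S.xG F r (u * t⁻¹ * t) ∈ M := htop (u * t⁻¹)
  rwa [inv_mul_cancel_right₀ ht] at h2

omit S in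
theorem exists_pair_of_closure {a b : GL D.Idx F} (ha : a ∈ D.group F) (hb : b ∈ D.group F)
    (h : D.group F ≤ Subgroup.closure {a, b}) :
    ∃ a b : ↥(D.group F), Subgroup.closure ({a, b} : Set ↥(D.group F)) = ⊤ := by
  refine ⟨⟨a, ha⟩, ⟨b, hb⟩, ?_⟩
  apply Subgroup.map_injective (D.group F).subtype_injective
  rw [MonoidHom.map_closure, ← MonoidHom.range_eq_map, Subgroup.range_subtype, Set.image_pair]
  refine le_antisymm ((Subgroup.closure_le _).mpr ?_) h
  rintro x (rfl | rfl)
  exacts [ha, hb]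

theorem two_gen_of_check [Finite F] (hF : ∃ x : F, x ≠ 0 ∧ x ≠ 1) (L : List (Fin D.rank))
    (m : Fin D.rank) {al be be0 j : ℕ} {steps : List GenStep}
    (h : pairCheck D (L.map Fin.val) m al be be0 j steps = true) :
    ∃ a b : ↥(D.group F), Subgroup.closure ({a, b} : Set ↥(D.group F)) = ⊤ := by
  classical
  have := Fintype.ofFinite F
  simp only [pairCheck, Bool.and_eq_true, decide_eq_true_eq] at h
  obtain ⟨⟨⟨⟨⟨⟨⟨⟨hal, hbe⟩, hbe0⟩, hw0⟩, hca⟩, hcb⟩, hcb0⟩, hco⟩, hgen⟩ := h
  obtain ⟨g, hg⟩ := IsCyclic.exists_generator (α := Fˣ)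
  have hg1 : g ≠ 1 := by
    rintro rfl
    obtain ⟨x, hx0, hx1⟩ := hF
    obtain ⟨k, hk⟩ := hg (Units.mk0 x hx0)
    exact hx1 (by simpa using congrArg Units.val hk.symm)
  have hne : ∀ {r : ℕ}, D.cartan m r = 1 ∨ D.cartan m r = -1 →
      ((g ^ D.cartan m r : Fˣ) : F) ≠ 1 := by
    intro r hr e
    have e' : g ^ D.cartan m r = 1 := Units.ext e
    rcases hr with hr | hr <;> rw [hr] at e' <;> simp at e' <;> exact hg1 e'
  set H := tor D F (Pi.mulSingle (m : ℕ) g)
  set n : GL D.Idx F := (S.wN F L : GL D.Idx F)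
  set w := wAct D (L.map Fin.val)
  set a := H * S.xG F al 1
  set b := S.xG F be 1 * n
  have hdle : D.diagonalSubgroup F ≤ D.group F := by
    refine (Subgroup.closure_le _).mpr ?_
    rintro x ⟨r, t, hr, -, hx⟩
    have : x = S.wG F (D.hWord r t) := Units.ext (by rw [hx, S.wG_val]; rfl)
    rw [this]
    refine S.wG_mem F fun e he => ?_
    simp [ChevalleyDatum.hWord, ChevalleyDatum.nWord] at he
    rcases he with rfl | rfl | rfl | rfl | rfl | rfl <;>
      first | exact hr | exact S.wf.neg_lt r hr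
  have hHd : H ∈ D.diagonalSubgroup F := by rw [S.diagonal_eq]; exact ⟨_, rfl⟩
  have hn : n ∈ D.group F := by
    clear_value H
    show ((L.map (S.nN F)).prod : ↥(D.monomialSubgroup F)).1 ∈ D.group F
    rw [SubmonoidClass.coe_list_prod, List.map_map]
    refine Subgroup.list_prod_mem _ fun x hx => ?_
    obtain ⟨i, -, rfl⟩ := List.mem_map.mp hx
    exact S.nG_mem F (S.wf.simple_lt i i.isLt) 1
  have hconj : ∀ {r : ℕ}, r < D.nroots → ∀ t : F,
      H * S.xG F r t * H⁻¹ = S.xG F r (((g ^ D.cartan m r : Fˣ) : F) * t) := fun hr t => by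
    rw [S.tor_conj F _ hr, torusVal_mulSingle F m.isLt]
  refine exists_pair_of_closure F (a := a) (b := b)
    (mul_mem (hdle hHd) (S.xG_mem F hal 1)) (mul_mem (S.xG_mem F hbe 1) hn) ?_
  set M := Subgroup.closure ({a, b} : Set (GL D.Idx F))
  have haM : a ∈ M := Subgroup.subset_closure (Or.inl rfl)
  have hbM : b ∈ M := Subgroup.subset_closure (Or.inr rfl)
  have hcomm : Commute H (S.xG F al 1) := by
    have := hconj hal 1
    rw [hca, zpow_zero, Units.val_one, one_mul, mul_inv_eq_iff_eq_mul] at this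
    exact this
  have hxa : S.xG F al 1 ∈ M := by
    have hH1 : H ^ (Fintype.card Fˣ) = 1 := by
      rw [← map_pow, ← Pi.mulSingle_pow, pow_card_eq_one, Pi.mulSingle_one, map_one]
    have := pow_mem haM (Fintype.card Fˣ)
    rw [hcomm.mul_pow, hH1, one_mul, S.xG_pow] at this
    have hc1 : ((Fintype.card Fˣ : ℕ) : F) = -1 := by
      rw [Fintype.card_units, Nat.cast_sub Fintype.card_pos, FiniteField.cast_card_eq_zero]
      simp
    rw [hc1, mul_one, ← S.xG_inv] at this
    exact inv_mem_iff.mp this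
  have hHM : H ∈ M := by simpa [a] using mul_mem haM (inv_mem hxa)
  obtain ⟨e, he, hne0⟩ := S.wN_conj F L hbe0
  set H' := n * H * n⁻¹
  have hH'd : H' ∈ D.diagonalSubgroup F :=
    (Subgroup.mem_normalizer_iff.mp (S.monomial_le_normalizer F (S.wN F L).2) _).mp hHd
  have hHH : Commute H H' := by
    rw [S.diagonal_eq] at hH'd
    obtain ⟨d, hd⟩ := hH'd
    rw [← hd]
    exact (Commute.all _ _).map (tor D F)
  set χ : F := ((g ^ D.cartan m be : Fˣ) : F)
  set χ0 : F := ((g ^ D.cartan m be0 : Fˣ) : F)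
  have hconj' : ∀ t : F, H' * S.xG F be t * H'⁻¹ = S.xG F be (χ0 * t) := by
    intro t
    have e1 : S.xG F be t = n * S.xG F be0 (e⁻¹ * t) * n⁻¹ := by
      rw [hne0, mul_inv_cancel_left₀ he]
      exact congrArg (fun i => S.xG F i t) hw0.symm
    calc H' * S.xG F be t * H'⁻¹ = n * (H * S.xG F be0 (e⁻¹ * t) * H⁻¹) * n⁻¹ := by
          rw [e1]; simp only [H']; group
      _ = _ := by
          rw [hconj hbe0, hne0, mul_left_comm e, mul_inv_cancel_left₀ he]
          exact congrArg (fun i => S.xG F i _) hw0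
  have hbe' : S.xG F be ((χ - 1) * (1 - χ0)) ∈ M := by
    have h1 : b * H * b⁻¹ = S.xG F be (1 - χ0) * H' := by
      have := hconj' (-1)
      calc b * H * b⁻¹ = S.xG F be 1 * H' * (S.xG F be 1)⁻¹ := by simp only [b, H']; group
        _ = S.xG F be 1 * (H' * S.xG F be (-1) * H'⁻¹) * H' := by rw [S.xG_inv]; group
        _ = _ := by rw [this, S.xG_add]; congr 2; ring
    have h2 : H * (b * H * b⁻¹) * H⁻¹ * (b * H * b⁻¹)⁻¹ = S.xG F be ((χ - 1) * (1 - χ0)) := by
      rw [h1]
      calc H * (S.xG F be (1 - χ0) * H') * H⁻¹ * (S.xG F be (1 - χ0) * H')⁻¹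
          = (H * S.xG F be (1 - χ0) * H⁻¹) * (H * H' * H⁻¹) * H'⁻¹ * (S.xG F be (1 - χ0))⁻¹ := by
            group
        _ = _ := by
            rw [hHH.eq, mul_inv_cancel_right, hconj hbe, S.xG_inv, mul_inv_cancel_right,
              S.xG_add]
            congr 1
            ring
    rw [← h2]
    exact mul_mem (mul_mem (mul_mem hHM (mul_mem (mul_mem hbM hHM) (inv_mem hbM))) (inv_mem hHM))
      (inv_mem (mul_mem (mul_mem hbM hHM) (inv_mem hbM)))
  have hbeM : S.RootIn F M be :=
    S.rootIn_of_scale F hg m.isLt hbe (by rcases hcb with h | h <;> simp [h]) hHM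
      (mul_ne_zero (sub_ne_zero.mpr (hne hcb)) (sub_ne_zero.mpr (hne hcb0).symm)) hbe'
  have hnM : n ∈ M := (Subgroup.mul_mem_cancel_left M (hbeM 1)).mp hbM
  have horb : ∀ k : ℕ, w^[k] al < D.nroots ∧ ∃ t : F, t ≠ 0 ∧ S.xG F (w^[k] al) t ∈ M := by
    intro k
    induction k with
    | zero => exact ⟨hal, 1, one_ne_zero, hxa⟩
    | succ k ih =>
      obtain ⟨hlt, t, ht, hm'⟩ := ih
      obtain ⟨e', he', hh⟩ := S.wN_conj F L hlt
      rw [Function.iterate_succ_apply']
      refine ⟨S.wAct_lt L hlt, e' * t, mul_ne_zero he' ht, ?_⟩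
      rw [← hh t]
      exact mul_mem (mul_mem hnM hm') (inv_mem hnM)
  obtain ⟨holt, t, ht, hto⟩ := horb j
  have hoM := S.rootIn_of_scale F hg m.isLt holt hco hHM ht hto
  refine S.group_le_of_genCheck F L (two := false) (by simp) hbe hbM steps [w^[j] al, be] ?_ ?_ hgen
  · rintro r hr
    rcases List.mem_cons.mp hr with rfl | hr
    · exact hoM
    · rw [List.mem_singleton.mp hr]; exact hbeM
  · rintro r hr
    rcases List.mem_cons.mp hr with rfl | hr
    · exact holt
    · rw [List.mem_singleton.mp hr]; exact hbe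

theorem two_gen_of_checkTwo (h2 : ∀ t : F, t = 0 ∨ t = 1) (L : List (Fin D.rank)) {al c : ℕ}
    {steps : List GenStep} (h : pairCheckTwo D (L.map Fin.val) al c steps = true) :
    ∃ a b : ↥(D.group F), Subgroup.closure ({a, b} : Set ↥(D.group F)) = ⊤ := by
  simp only [pairCheckTwo, Bool.and_eq_true, decide_eq_true_eq] at h
  obtain ⟨⟨hal, hc⟩, hgen⟩ := h
  have hn : (S.wN F L : GL D.Idx F) ∈ D.group F := by
    show ((L.map (S.nN F)).prod : ↥(D.monomialSubgroup F)).1 ∈ D.group F
    rw [SubmonoidClass.coe_list_prod, List.map_map]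
    refine Subgroup.list_prod_mem _ fun x hx => ?_
    obtain ⟨i, -, rfl⟩ := List.mem_map.mp hx
    exact S.nG_mem F (S.wf.simple_lt i i.isLt) 1
  refine exists_pair_of_closure F (a := S.xG F al 1) (b := S.xG F c 1 * (S.wN F L : GL D.Idx F))
    (S.xG_mem F hal 1) (mul_mem (S.xG_mem F hc 1) hn) ?_
  refine S.group_le_of_genCheck F L (two := true) (fun _ => h2) hc
    (Subgroup.subset_closure (Or.inr rfl)) steps [al] ?_ ?_ hgen
  · intro r hr
    rw [List.mem_singleton.mp hr]
    exact S.xG_mem_of_zero_or_one F h2 (Subgroup.subset_closure (Or.inl rfl))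
  · intro r hr
    rw [List.mem_singleton.mp hr]; exact hal

end Sys

end CfsgLib.Chevalley
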