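import Cfsg.Agent.Chevalley.Bruhat
import Cfsg.Agent.Chevalley.Generation

/-!
A certificate checker for generation of a Chevalley group from root elements and one element
`x_c(1) n_w`.
-/

set_option autoImplicit false

namespace CfsgLib.Chevalley

open Cfsg.Lie

variable (D : ChevalleyDatum)

/-- One step of a generation certificate. -/
inductive GenStep where
  /-- the image of a known root under `w` -/
  | mv (a : ℕ)
  /-- a preimage of a known root under `w` -/
  | inv (k : ℕ)
  /-- one factor of the conjugate of a known root by `x_c(1) n_w` -/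
  | mvx (a k : ℕ)
  /-- one factor of the commutator of two known roots -/
  | cm (a b k : ℕ)

/-- The root produced by a step. -/
def GenStep.out (w : ℕ → ℕ) : GenStep → ℕ
  | .mv a => w a
  | .inv k => k
  | .mvx _ k => k
  | .cm _ _ k => k

/-- A commutator term which is harmless: known, or vanishing over the field with two elements. -/
def termKnown (two : Bool) (K : List ℕ) (e : ℕ × ℤ × ℕ × ℕ) : Bool :=
  decide (e.1 ∈ K) || (two && decide (e.2.1 % 2 = 0))

/-- A commutator term which gives the whole root subgroup. -/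
def termGood (two : Bool) (e : ℕ × ℤ × ℕ × ℕ) : Bool :=
  (two && decide (e.2.1 % 2 = 1)) ||
    (decide (e.2.1 = 1 ∨ e.2.1 = -1) && decide (e.2.2.1 = 1 ∨ e.2.2.2 = 1))

/-- The list of terms determines the root subgroup of `k`. -/
def termsGive (two : Bool) (K : List ℕ) (T : List (ℕ × ℤ × ℕ × ℕ)) (k : ℕ) : Bool :=
  (List.range T.length).any fun i => match T[i]? with
    | none => false
    | some e => decide (e.1 = k) && termGood two e &&
        (T.take i).all (termKnown two K) && (T.drop (i + 1)).all (termKnown two K)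

/-- Conjugation by `x_c(1)` fixes the root subgroup of `u`, or stays inside the known part. -/
def stayFix (two : Bool) (K : List ℕ) (c u : ℕ) : Bool :=
  decide (c ∈ K) || (two && (decide (u = c) ||
    (decide (u ≠ D.neg c) && (D.commTerms c u).all (fun e => decide (e.2.1 % 2 = 0)))))

/-- The check of one step. -/
def stepOK (two : Bool) (w : ℕ → ℕ) (c : ℕ) (K : List ℕ) : GenStep → Bool
  | .mv a => decide (a ∈ K) && stayFix D two K c (w a)
  | .inv k => decide (k < D.nroots) && decide (w k ∈ K) && stayFix D two K c (w k)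
  | .mvx a k => two && decide (a ∈ K) && decide (w a ≠ c) && decide (w a ≠ D.neg c) &&
      ((decide (k = w a) && (D.commTerms c (w a)).all (termKnown two K)) ||
        (decide (w a ∈ K) && decide (k < D.nroots) && termsGive two K (D.commTerms c (w a)) k))
  | .cm a b k => decide (a ∈ K) && decide (b ∈ K) && decide (b ≠ a) && decide (b ≠ D.neg a) &&
      decide (k < D.nroots) && termsGive two K (D.commTerms a b) k

/-- The check of a certificate: all roots are reached. -/
def genCheck (two : Bool) (w : ℕ → ℕ) (c : ℕ) : List ℕ → List GenStep → Bool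
  | K, [] => (List.range D.nroots).all fun r => decide (r ∈ K)
  | K, s :: L => stepOK D two w c K s && genCheck two w c (s.out w :: K) L

variable {D}

namespace Sys

variable (S : Sys D)
include S

variable (F : Type*) [Field F]

theorem xG_mem_of_zero_or_one {r : ℕ} {M : Subgroup (GL D.Idx F)} (h2 : ∀ t : F, t = 0 ∨ t = 1)
    (h : S.xG F r 1 ∈ M) : S.RootIn F M r := by
  intro t
  rcases h2 t with rfl | rfl
  · rw [S.xG_zero]; exact one_mem M
  · exact h

omit S in
theorem intCast_two_eq_zero (h2 : ∀ t : F, t = 0 ∨ t = 1) : (2 : F) = 0 := by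
  rcases h2 2 with h | h
  · exact h
  · exfalso
    have : (1 : F) = 0 := by linear_combination h
    exact one_ne_zero this

theorem intCast_of_even (h2 : ∀ t : F, t = 0 ∨ t = 1) {z : ℤ} (hz : z % 2 = 0) : (z : F) = 0 := by
  obtain ⟨m, rfl⟩ : (2 : ℤ) ∣ z := Int.dvd_of_emod_eq_zero hz
  rw [Int.cast_mul, Int.cast_ofNat, intCast_two_eq_zero F h2, zero_mul]

theorem intCast_of_odd (h2 : ∀ t : F, t = 0 ∨ t = 1) {z : ℤ} (hz : z % 2 = 1) : (z : F) = 1 := by
  obtain ⟨m, rfl⟩ : ∃ m, z = 2 * m + 1 := ⟨z / 2, by omega⟩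
  rw [Int.cast_add, Int.cast_mul, Int.cast_ofNat, intCast_two_eq_zero F h2, zero_mul, zero_add,
    Int.cast_one]

theorem termKnown_mem {two : Bool} (h2 : two = true → ∀ t : F, t = 0 ∨ t = 1)
    {M : Subgroup (GL D.Idx F)} {K : List ℕ} (hK : ∀ r ∈ K, S.RootIn F M r)
    {e : ℕ × ℤ × ℕ × ℕ} (he : termKnown two K e = true) (a b : F) :
    S.xG F e.1 ((e.2.1 : F) * a * b) ∈ M := by
  simp only [termKnown, Bool.or_eq_true, Bool.and_eq_true, decide_eq_true_eq] at he
  rcases he with h | ⟨h, hz⟩
  · exact hK _ h _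
  · rw [S.intCast_of_even F (h2 h) hz, zero_mul, zero_mul, S.xG_zero]; exact one_mem M

/-- The words of commutator terms give the chosen root subgroup. -/
theorem rootIn_of_termsGive {two : Bool} (h2 : two = true → ∀ t : F, t = 0 ∨ t = 1)
    {M : Subgroup (GL D.Idx F)} {K : List ℕ} (hK : ∀ r ∈ K, S.RootIn F M r)
    {r s k : ℕ} (hT : termsGive two K (D.commTerms r s) k = true)
    (hw : ∀ t u : F, t ≠ 0 → u ≠ 0 → S.wG F (D.commWord F r s t u) ∈ M) : S.RootIn F M k := by
  simp only [termsGive, List.any_eq_true, List.mem_range] at hT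
  obtain ⟨i, hi, hT⟩ := hT
  rw [List.getElem?_eq_getElem hi] at hT
  simp only [Bool.and_eq_true, decide_eq_true_eq, List.all_eq_true] at hT
  obtain ⟨⟨⟨he, hgood⟩, hpre⟩, hpost⟩ := hT
  set T := D.commTerms r s with hTdef
  set e := T[i] with hedef
  have hsplit : T = T.take i ++ e :: T.drop (i + 1) := by
    rw [hedef, List.getElem_cons_drop, List.take_append_drop]
  have hterm : ∀ t u : F, t ≠ 0 → u ≠ 0 →
      S.xG F k ((e.2.1 : F) * (-t) ^ e.2.2.1 * u ^ e.2.2.2) ∈ M := by
    intro t u ht hu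
    set f : ℕ × ℤ × ℕ × ℕ → GL D.Idx F :=
      fun c => S.xG F c.1 ((c.2.1 : F) * (-t) ^ c.2.2.1 * u ^ c.2.2.2) with hf
    have h := hw t u ht hu
    have e1 : S.wG F (D.commWord F r s t u) = (T.map f).prod := by
      rw [wG, ChevalleyDatum.commWord, List.map_map]; rfl
    rw [e1, hsplit, List.map_append, List.prod_append, List.map_cons, List.prod_cons] at h
    have hp : ((T.take i).map f).prod ∈ M := Subgroup.list_prod_mem _ fun g hg => by
      obtain ⟨c, hc, rfl⟩ := List.mem_map.mp hg
      exact S.termKnown_mem F h2 hK (hpre c hc) _ _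
    have hq : ((T.drop (i + 1)).map f).prod ∈ M := Subgroup.list_prod_mem _ fun g hg => by
      obtain ⟨c, hc, rfl⟩ := List.mem_map.mp hg
      exact S.termKnown_mem F h2 hK (hpost c hc) _ _
    have := (Subgroup.mul_mem_cancel_right M hq).mp ((Subgroup.mul_mem_cancel_left M hp).mp h)
    rw [← he]; exact this
  simp only [termGood, Bool.or_eq_true, Bool.and_eq_true, decide_eq_true_eq] at hgood
  rcases hgood with ⟨htwo, hz⟩ | ⟨hc, hij⟩
  · refine S.xG_mem_of_zero_or_one F (h2 htwo) ?_
    have := hterm (-1) 1 (neg_ne_zero.mpr one_ne_zero) one_ne_zero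
    rwa [S.intCast_of_odd F (h2 htwo) hz, neg_neg, one_pow, one_pow, mul_one, mul_one] at this
  · intro x
    by_cases hx : x = 0
    · rw [hx, S.xG_zero]; exact one_mem M
    have hcc : (e.2.1 : F) * (e.2.1 : F) = 1 := by rcases hc with h | h <;> simp [h]
    have hne : (e.2.1 : F) * x ≠ 0 := mul_ne_zero (left_ne_zero_of_mul_eq_one hcc) hx
    rcases hij with h | h
    · have := hterm (-((e.2.1 : F) * x)) 1 (neg_ne_zero.mpr hne) one_ne_zero
      rwa [h, neg_neg, pow_one, one_pow, mul_one, ← mul_assoc, hcc, one_mul] at this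
    · have := hterm (-1) ((e.2.1 : F) * x) (neg_ne_zero.mpr one_ne_zero) hne
      rwa [h, neg_neg, pow_one, one_pow, mul_one, ← mul_assoc, hcc, one_mul] at this

variable (L : List (Fin D.rank)) {M : Subgroup (GL D.Idx F)}

/-- The action of the word on root indices. -/
def wAct (D : ChevalleyDatum) (L : List ℕ) (s : ℕ) : ℕ := L.foldr D.reflectRoot s

theorem wAct_lt {s : ℕ} (hs : s < D.nroots) : wAct D (L.map Fin.val) s < D.nroots := by
  induction L with
  | nil => exact hs
  | cons i L ih => exact S.w_lt i i.isLt _ ih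

theorem wN_conj {s : ℕ} (hs : s < D.nroots) : ∃ c : F, c ≠ 0 ∧ ∀ t : F,
    (S.wN F L : GL D.Idx F) * S.xG F s t * (S.wN F L : GL D.Idx F)⁻¹ =
      S.xG F (wAct D (L.map Fin.val) s) (c * t) := by
  obtain ⟨c, hc, h⟩ := S.conj_root F (S.wN F L) ⟨s, hs⟩
  refine ⟨c, hc, fun t => ?_⟩
  rw [(h t).1, S.perm_wN]
  congr 1
  clear h
  induction L with
  | nil => rfl
  | cons i L ih => rw [S.wperm_cons, Equiv.Perm.mul_apply, S.srefl_val, ih]; rfl

theorem stayFix_conj {two : Bool} (h2 : two = true → ∀ t : F, t = 0 ∨ t = 1) {K : List ℕ}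
    (hK : ∀ r ∈ K, S.RootIn F M r) {c u : ℕ} (hc : c < D.nroots) (hu : u < D.nroots)
    (h : stayFix D two K c u = true) (t : F) :
    S.xG F u t ∈ M ↔ S.xG F c 1 * S.xG F u t * (S.xG F c 1)⁻¹ ∈ M := by
  simp only [stayFix, Bool.or_eq_true, Bool.and_eq_true, decide_eq_true_eq, List.all_eq_true] at h
  rcases h with h | ⟨htwo, h⟩
  · have := hK c h 1
    rw [Subgroup.mul_mem_cancel_right M (inv_mem this), Subgroup.mul_mem_cancel_left M this]
  · suffices hcomm : Commute (S.xG F c 1) (S.xG F u t) by rw [hcomm.eq, mul_inv_cancel_right]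
    rcases h with rfl | ⟨hne, hev⟩
    · show _ * _ = _ * _
      rw [S.xG_add, S.xG_add, add_comm]
    · by_cases huc : u = c
      · subst huc
        show _ * _ = _ * _
        rw [S.xG_add, S.xG_add, add_comm]
      · have e := S.xG_comm F hc hu huc hne 1 t
        have e' : S.wG F (D.commWord F c u 1 t) = 1 := by
          refine List.prod_eq_one fun g hg => ?_
          simp only [ChevalleyDatum.commWord, List.map_map, List.mem_map, Function.comp_apply] at hg
          obtain ⟨d, hd, rfl⟩ := hg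
          rw [S.intCast_of_even F (h2 htwo) (hev d hd), zero_mul, zero_mul, S.xG_zero]
        rw [e', mul_one, mul_assoc, inv_mul_eq_iff_eq_mul] at e
        exact e.symm

theorem rootIn_step {two : Bool} (h2 : two = true → ∀ t : F, t = 0 ∨ t = 1) {c : ℕ}
    (hc : c < D.nroots) (hb : S.xG F c 1 * (S.wN F L : GL D.Idx F) ∈ M) {K : List ℕ}
    (hK : ∀ r ∈ K, S.RootIn F M r) (hKlt : ∀ r ∈ K, r < D.nroots) {st : GenStep}
    (h : stepOK D two (wAct D (L.map Fin.val)) c K st = true) :
    S.RootIn F M (st.out (wAct D (L.map Fin.val))) ∧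
      st.out (wAct D (L.map Fin.val)) < D.nroots := by
  set n := (S.wN F L : GL D.Idx F)
  have conjb : ∀ {s : ℕ}, s < D.nroots → ∃ e : F, e ≠ 0 ∧ ∀ t : F,
      (S.xG F c 1 * n) * S.xG F s t * (S.xG F c 1 * n)⁻¹ =
        S.xG F c 1 * S.xG F (wAct D (L.map Fin.val) s) (e * t) * (S.xG F c 1)⁻¹ := by
    intro s hs
    obtain ⟨e, he, hh⟩ := S.wN_conj F L hs
    refine ⟨e, he, fun t => ?_⟩
    rw [← hh t]
    group
    rfl
  cases st with
  | mv a =>
    simp only [stepOK, Bool.and_eq_true, decide_eq_true_eq] at h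
    have hwlt := S.wAct_lt L (hKlt a h.1)
    refine ⟨fun t => ?_, hwlt⟩
    obtain ⟨e, he, hh⟩ := conjb (hKlt a h.1)
    show S.xG F (wAct D (L.map Fin.val) a) t ∈ M
    rw [S.stayFix_conj F h2 hK hc hwlt h.2 t]
    have := mul_mem (mul_mem hb (hK a h.1 (e⁻¹ * t))) (inv_mem hb)
    rwa [hh, mul_inv_cancel_left₀ he] at this
  | inv k =>
    simp only [stepOK, Bool.and_eq_true, decide_eq_true_eq] at h
    obtain ⟨⟨hk, hwk⟩, hfix⟩ := h
    refine ⟨fun t => ?_, hk⟩
    obtain ⟨e, he, hh⟩ := conjb hk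
    have := (S.stayFix_conj F h2 hK hc (hKlt _ hwk) hfix (e * t)).mp (hK _ hwk _)
    rw [← hh t] at this
    exact (Subgroup.mul_mem_cancel_left M hb).mp
      ((Subgroup.mul_mem_cancel_right M (inv_mem hb)).mp this)
  | mvx a k =>
    simp only [stepOK, Bool.and_eq_true, decide_eq_true_eq, Bool.or_eq_true,
      List.all_eq_true] at h
    obtain ⟨⟨⟨⟨htwo, ha⟩, hne⟩, hneg⟩, hk⟩ := h
    have halt := hKlt a ha
    have hwlt := S.wAct_lt L halt
    obtain ⟨e, he, hh⟩ := conjb halt
    have he1 : e = 1 := (h2 htwo e).resolve_left he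
    have hm1 : (-1 : F) = 1 := (h2 htwo (-1)).resolve_left (neg_ne_zero.mpr one_ne_zero)
    have key : S.xG F (wAct D (L.map Fin.val) a) 1 *
        S.wG F (D.commWord F c (wAct D (L.map Fin.val) a) 1 1) ∈ M := by
      have := mul_mem (mul_mem hb (hK a ha 1)) (inv_mem hb)
      rw [hh 1, he1, one_mul] at this
      rw [← S.xG_comm F hc hwlt hne hneg 1 1, S.xG_inv, hm1]
      rwa [S.xG_inv, hm1] at this
    have hword : ∀ t u : F, t = 1 → u = 1 → S.xG F (wAct D (L.map Fin.val) a) 1 *
        S.wG F (D.commWord F c (wAct D (L.map Fin.val) a) t u) ∈ M := by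
      rintro t u rfl rfl; exact key
    rcases hk with ⟨rfl, hall⟩ | ⟨⟨hwK, hklt⟩, hT⟩
    · refine ⟨S.xG_mem_of_zero_or_one F (h2 htwo) ?_, hwlt⟩
      refine (Subgroup.mul_mem_cancel_right M ?_).mp key
      refine Subgroup.list_prod_mem _ fun g hg => ?_
      simp only [ChevalleyDatum.commWord, List.map_map, List.mem_map, Function.comp_apply] at hg
      obtain ⟨d, hd, rfl⟩ := hg
      exact S.termKnown_mem F h2 hK (hall d hd) _ _
    · refine ⟨S.rootIn_of_termsGive F h2 hK hT ?_, hklt⟩
      intro t u ht hu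
      obtain rfl := (h2 htwo t).resolve_left ht
      obtain rfl := (h2 htwo u).resolve_left hu
      exact (Subgroup.mul_mem_cancel_left M (hK _ hwK 1)).mp key
  | cm a b k =>
    simp only [stepOK, Bool.and_eq_true, decide_eq_true_eq] at h
    obtain ⟨⟨⟨⟨⟨ha, hb'⟩, hne⟩, hneg⟩, hklt⟩, hT⟩ := h
    refine ⟨S.rootIn_of_termsGive F h2 hK hT fun t u _ _ => ?_, hklt⟩
    refine (Subgroup.mul_mem_cancel_left M (hK b hb' u)).mp ?_
    rw [← S.xG_comm F (hKlt a ha) (hKlt b hb') hne hneg t u]
    exact mul_mem (mul_mem (inv_mem (hK a ha t)) (hK b hb' u)) (hK a ha t)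

/-- A checked certificate shows that the whole group lies in `M`. -/
theorem group_le_of_genCheck {two : Bool} (h2 : two = true → ∀ t : F, t = 0 ∨ t = 1) {c : ℕ}
    (hc : c < D.nroots) (hb : S.xG F c 1 * (S.wN F L : GL D.Idx F) ∈ M) (steps : List GenStep) :
    ∀ K : List ℕ, (∀ r ∈ K, S.RootIn F M r) → (∀ r ∈ K, r < D.nroots) →
      genCheck D two (wAct D (L.map Fin.val)) c K steps = true → D.group F ≤ M := by
  induction steps with
  | nil =>
    intro K hK _ h
    simp only [genCheck, List.all_eq_true, List.mem_range, decide_eq_true_eq] at h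
    rw [S.group_eq F, Subgroup.closure_le]
    rintro _ ⟨r, hr, t, rfl⟩
    exact hK r (h r hr) t
  | cons st steps ih =>
    intro K hK hKlt h
    simp only [genCheck, Bool.and_eq_true] at h
    obtain ⟨h1, h2'⟩ := S.rootIn_step F L h2 hc hb hK hKlt h.1
    refine ih _ (fun r hr => ?_) (fun r hr => ?_) h.2
    · rcases List.mem_cons.mp hr with rfl | hr
      exacts [h1, hK r hr]
    · rcases List.mem_cons.mp hr with rfl | hr
      exacts [h2', hKlt r hr]

end Sys

end CfsgLib.Chevalley
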