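import Cfsg.Agent.Chevalley.Coxeter

/-!
The centre of the Weyl group: an element commuting with all fundamental reflections is `±1`.
-/

set_option autoImplicit false

namespace CfsgLib.Chevalley

open Cfsg.Lie

/-- Only `±p_i` are negated by the reflection in `p_i`. -/
def chkNegFixed (D : ChevalleyDatum) : Bool :=
  (List.range D.rank).all fun i => (List.range D.nroots).all fun r =>
    decide (D.reflectRoot i r ≠ D.neg r) || decide (r = D.simple i) || decide (r = D.neg (D.simple i))

variable {D : ChevalleyDatum}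

namespace Sys

variable (S : Sys D)
include S

theorem wperm_eq_negF_of_simple (L : List (Fin D.rank))
    (h : ∀ i : Fin D.rank, S.wperm L (S.simpleF i) = S.negF (S.simpleF i)) (s : Fin D.nroots) :
    S.wperm L s = S.negF s := by
  refine Fin.ext (S.vec_inj _ (Fin.isLt _) _ (Fin.isLt _) fun j hj => ?_)
  rw [S.vec_wperm L s j hj, Finset.sum_eq_single_of_mem (⟨j, hj⟩ : Fin D.rank) (Finset.mem_univ _)]
  · rw [h, S.negF_val, S.negF_val, S.vec_neg j hj _ (Fin.isLt _), S.vec_neg j hj _ (Fin.isLt _)]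
    show S.vec j s * -(S.vec j (D.simple j)) = _
    rw [S.vec_simple j hj j hj, if_pos rfl]
    ring
  · intro m _ hm
    rw [h, S.negF_val, S.vec_neg j hj _ (Fin.isLt _)]
    show S.vec m s * -(S.vec j (D.simple m)) = _
    rw [S.vec_simple m m.isLt j hj, if_neg fun e => hm (Fin.ext e.symm)]
    ring

/-- An element commuting with all fundamental reflections is `1` or `-1`. -/
theorem wperm_central (L : List (Fin D.rank)) (hfix : chkNegFixed D = true) {T : ℕ}
    (hT : T < D.nroots) (hTp : D.nroots / 2 ≤ T) (hfull : ∀ m < D.rank, S.vec m T ≠ 0)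
    (hc : ∀ i, S.wperm L * S.srefl i = S.srefl i * S.wperm L) :
    S.wperm L = 1 ∨ ∀ s, S.wperm L s = S.negF s := by
  simp only [chkNegFixed, List.all_eq_true, List.mem_range, Bool.or_eq_true,
    decide_eq_true_eq] at hfix
  have hsign : ∀ i : Fin D.rank, S.wperm L (S.simpleF i) = S.simpleF i ∨
      S.wperm L (S.simpleF i) = S.negF (S.simpleF i) := by
    intro i
    set r := S.wperm L (S.simpleF i) with hr
    have h1 : S.srefl i r = S.negF r := by
      rw [hr, ← Equiv.Perm.mul_apply, ← hc i, Equiv.Perm.mul_apply, S.srefl_simple, S.wperm_negF]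
    rcases hfix i i.isLt r r.isLt with (h | h) | h
    · exact absurd (congrArg Fin.val h1) h
    · exact Or.inl (Fin.ext h)
    · exact Or.inr (Fin.ext h)
  by_cases hall : ∀ i : Fin D.rank, S.wperm L (S.simpleF i) = S.negF (S.simpleF i)
  · exact Or.inr (S.wperm_eq_negF_of_simple L hall)
  left
  rw [show (1 : Equiv.Perm (Fin D.nroots)) = S.wperm [] from rfl]
  refine S.wperm_ext fun b => ?_
  rcases hsign b with hb | hb
  · exact hb
  exfalso
  push Not at hall
  obtain ⟨a, ha⟩ := hall
  replace ha := (hsign a).resolve_right ha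
  set u := S.wperm L ⟨T, hT⟩ with hu
  have hcoord : ∀ (m : Fin D.rank), S.vec m u =
      S.vec m T * S.vec m (S.wperm L (S.simpleF m)) := by
    intro m
    rw [hu, S.vec_wperm L ⟨T, hT⟩ m m.isLt, Finset.sum_eq_single_of_mem m (Finset.mem_univ _)]
    intro k _ hk
    have h0 : S.vec m (S.simpleF k) = 0 := by
      show S.vec m (D.simple k) = 0
      rw [S.vec_simple k k.isLt m m.isLt, if_neg fun e => hk (Fin.ext e.symm)]
    rcases hsign k with h | h <;> rw [h]
    · rw [h0, mul_zero]
    · rw [S.negF_val, S.vec_neg m m.isLt _ (Fin.isLt _), h0, neg_zero, mul_zero]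
  have hone : ∀ m : Fin D.rank, S.vec m (S.simpleF m) = 1 := fun m => by
    show S.vec m (D.simple m) = 1
    rw [S.vec_simple m m.isLt m m.isLt, if_pos rfl]
  have hpa : 0 < S.vec a u := by
    rw [hcoord, ha, hone, mul_one]
    exact lt_of_le_of_ne (S.vec_pos T hT hTp a a.isLt) (Ne.symm (hfull a a.isLt))
  have hnb : S.vec b u < 0 := by
    rw [hcoord, hb, S.negF_val, S.vec_neg b b.isLt _ (Fin.isLt _), hone, mul_neg, mul_one, neg_lt_zero]
    exact lt_of_le_of_ne (S.vec_pos T hT hTp b b.isLt) (Ne.symm (hfull b b.isLt))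
  rcases lt_or_ge (u : ℕ) (D.nroots / 2) with hlt | hge
  · have h1 := S.vec_pos _ (S.wf.neg_lt u u.isLt) ((S.neg_half _ (S.wf.neg_lt u u.isLt)).mp
      (by rw [S.wf.neg_neg u u.isLt]; exact hlt)) a a.isLt
    rw [S.vec_neg a a.isLt u u.isLt] at h1
    omega
  · have h1 := S.vec_pos u u.isLt hge b b.isLt
    omega

/-- The centre of a Coxeter group whose Weyl group contains `-1` as a power of the word `C`. -/
theorem center_of_neg_one (M : CoxeterMatrix (Fin D.rank)) (h : chkCox D M = true)
    (hfix : chkNegFixed D = true) {T : ℕ} (hT : T < D.nroots) (hTp : D.nroots / 2 ≤ T)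
    (hfull : ∀ m < D.rank, S.vec m T ≠ 0) (C : List (Fin D.rank)) (k : ℕ)
    (hk : ∀ j < D.rank, refIter D (C.map Fin.val) k (D.simple j) = D.neg (D.simple j)) :
    Nat.card (Subgroup.center M.Group) = 2 ∧
      Subgroup.center M.Group ≤ Subgroup.zpowers (C.map M.simple).prod := by
  obtain ⟨ψ, hinj, hψ, hr⟩ := S.exists_coxAction ℚ M h
  have hC : ψ (C.map M.simple).prod = S.wperm C := by
    rw [map_list_prod, List.map_map, wperm]
    congr 1
    exact List.map_congr_left fun i _ => hψ i
  set z := (C.map M.simple).prod ^ k with hzdef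
  have hzneg : ∀ s, ψ z s = S.negF s := by
    intro s
    rw [hzdef, map_pow, hC, S.wperm_pow]
    refine S.wperm_eq_negF_of_simple _ (fun i => Fin.ext ?_) s
    rw [← S.wperm_pow, S.wperm_pow_val]
    exact hk i i.isLt
  have hzc : z ∈ Subgroup.center M.Group := by
    rw [Subgroup.mem_center_iff]
    intro g
    apply hinj
    obtain ⟨L, hL⟩ := (hr (ψ g)).mp ⟨g, rfl⟩
    ext s
    rw [map_mul, map_mul, Equiv.Perm.mul_apply, Equiv.Perm.mul_apply, hzneg, hzneg, hL,
      S.wperm_negF]
  have hcases : ∀ x ∈ Subgroup.center M.Group, x = 1 ∨ x = z := by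
    intro x hx
    obtain ⟨L, hL⟩ := (hr (ψ x)).mp ⟨x, rfl⟩
    rcases S.wperm_central L hfix hT hTp hfull (fun i => by
      rw [← hL, ← hψ i, ← map_mul, ← map_mul, Subgroup.mem_center_iff.mp hx]) with h1 | h1
    · exact Or.inl (hinj (by rw [hL, h1, map_one]))
    · exact Or.inr (hinj (Equiv.ext fun s => by rw [hL, h1, hzneg]))
  have hz1 : z ≠ 1 := by
    intro e
    have h1 := congrArg Fin.val (hzneg ⟨T, hT⟩)
    rw [e, map_one] at h1
    exact S.wf.neg_ne T hT h1.symm
  refine ⟨?_, fun x hx => ?_⟩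
  · rw [show ((2 : ℕ)) = ({1, z} : Set M.Group).ncard from (Set.ncard_pair (Ne.symm hz1)).symm,
      ← Nat.card_coe_set_eq]
    refine Nat.card_congr (Equiv.setCongr ?_)
    ext x
    exact ⟨fun hx => hcases x hx, fun hx => hx.elim (fun e => e ▸ one_mem _) (fun e => e ▸ hzc)⟩
  · rcases hcases x hx with rfl | rfl
    · exact one_mem _
    · exact Subgroup.npow_mem_zpowers _ k

/-- The centre of a Coxeter group whose longest element is not `-1` is trivial. -/
theorem center_eq_bot_of_longest (M : CoxeterMatrix (Fin D.rank)) (h : chkCox D M = true)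
    (hfix : chkNegFixed D = true) {T : ℕ} (hT : T < D.nroots) (hTp : D.nroots / 2 ≤ T)
    (hfull : ∀ m < D.rank, S.vec m T ≠ 0) (L₀ : List (Fin D.rank))
    (hneg : ∀ j < D.rank, (L₀.map Fin.val).foldr D.reflectRoot (D.simple j) < D.nroots / 2)
    {j₀ : Fin D.rank}
    (hne : (L₀.reverse.map Fin.val).foldr D.reflectRoot (D.simple j₀) ≠ D.neg (D.simple j₀)) :
    Subgroup.center M.Group = ⊥ := by
  obtain ⟨ψ, hinj, hψ, hr⟩ := S.exists_coxAction ℚ M h
  rw [eq_bot_iff]
  intro x hx
  obtain ⟨L, hL⟩ := (hr (ψ x)).mp ⟨x, rfl⟩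
  rcases S.wperm_central L hfix hT hTp hfull (fun i => by
    rw [← hL, ← hψ i, ← map_mul, ← map_mul, Subgroup.mem_center_iff.mp hx]) with h1 | h1
  · exact Subgroup.mem_bot.mpr (hinj (by rw [hL, h1, map_one]))
  exfalso
  have hneg' : ∀ i : Fin D.rank, (S.wperm L₀ (S.simpleF i) : ℕ) < D.nroots / 2 := fun i => by
    rw [S.wperm_val]; exact hneg i i.isLt
  have hone : S.wperm (L ++ L₀) = 1 := by
    refine S.wperm_eq_one ℚ _ fun s hs => ?_
    by_contra hlt
    have hle : ∀ j < D.rank, S.vec j (S.wperm L₀ s) ≤ 0 := by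
      intro j hj
      rw [S.vec_wperm L₀ s j hj]
      refine Finset.sum_nonpos fun m _ => mul_nonpos_of_nonneg_of_nonpos
        (S.vec_pos s s.isLt hs m m.isLt) ?_
      by_contra h2
      have := S.pos_of_vec (Fin.isLt _) hj (not_le.mp h2)
      have := hneg' m
      omega
    rw [S.wperm_append, Equiv.Perm.mul_apply, h1, not_le] at hlt
    replace hlt := S.lt_half_negF.mp hlt
    have h3 : ∀ j < D.rank, S.vec j (S.wperm L₀ s) = 0 := fun j hj => by
      refine le_antisymm (hle j hj) ?_
      exact S.vec_pos _ (Fin.isLt _) (by omega) j hj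
    exact S.wf.neg_ne _ (Fin.isLt (S.wperm L₀ s)) (S.vec_inj _ (S.wf.neg_lt _ (Fin.isLt _)) _
      (Fin.isLt _) fun j hj => by rw [S.vec_neg j hj _ (Fin.isLt _), h3 j hj, neg_zero])
  apply hne
  have h4 : S.wperm L = S.wperm L₀.reverse := by
    rw [S.wperm_reverse]
    exact eq_inv_of_mul_eq_one_left (by rw [← S.wperm_append, hone])
  rw [show D.simple j₀ = (S.simpleF j₀ : ℕ) from rfl, ← S.wperm_val, ← h4, h1]
  rfl

end Sys

end CfsgLib.Chevalley
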